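import Mathlib.FieldTheory.Finite.GaloisField
import Mathlib.FieldTheory.Finite.Trace
import Mathlib.Algebra.Polynomial.Roots
import Mathlib.Tactic

/-! The set of elements `a` with `N a = N (2 - a) = 1` in a finite field of odd prime degree. -/

set_option autoImplicit false

namespace Cfsg.Agent.NormField

open Polynomial

/-- If the exceptional set is closed under inversion and has an element other than 1 then the
characteristic is at most the degree. -/
theorem le_of_inv_closed {p : ℕ} [Fact p.Prime] {L : Type*} [Field L] [Finite L]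
    [Algebra (ZMod p) L] (hodd : Odd (Module.finrank (ZMod p) L))
    (hinv : ∀ a : L, Algebra.norm (ZMod p) a = 1 → Algebra.norm (ZMod p) (2 - a) = 1 →
      Algebra.norm (ZMod p) (2 - a⁻¹) = 1)
    (a₀ : L) (ha₀ : a₀ ≠ 1) (hN : Algebra.norm (ZMod p) a₀ = 1)
    (hN' : Algebra.norm (ZMod p) (2 - a₀) = 1) :
    p ≤ Module.finrank (ZMod p) L := by
  classical
  set q := Module.finrank (ZMod p) L with hq
  let N : L →* ZMod p := Algebra.norm (ZMod p)
  have hN0 : N 0 = 0 := Algebra.norm_zero
  have hne : ∀ x : L, N x = 1 → x ≠ 0 := fun x h e => by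
    rw [e, hN0] at h; exact zero_ne_one h
  -- the exceptional set is stable under `a ↦ 1/(2-a)`
  have hstep : ∀ a : L, N a = 1 → N (2 - a) = 1 → N (2 - a)⁻¹ = 1 ∧ N (2 - (2 - a)⁻¹) = 1 := by
    intro a h1 h2
    have h3 : N (2 - a)⁻¹ = 1 := by
      have := map_mul N (2 - a) (2 - a)⁻¹
      rw [mul_inv_cancel₀ (hne _ h2), map_one, h2, one_mul] at this
      exact this.symm
    refine ⟨h3, hinv (2 - a) h2 ?_⟩
    show N (2 - (2 - a)) = 1
    simpa using h1
  set t := (a₀ - 1)⁻¹ with ht
  have hind : ∀ n : ℕ, t - (n : L) ≠ 0 ∧ N (1 + (t - (n : L))⁻¹) = 1 ∧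
      N (2 - (1 + (t - (n : L))⁻¹)) = 1 := by
    intro n
    induction n with
    | zero =>
      have h : t ≠ 0 := inv_ne_zero (sub_ne_zero.2 ha₀)
      simp only [Nat.cast_zero, sub_zero, ht, inv_inv, add_sub_cancel]
      exact ⟨h, hN, hN'⟩
    | succ n ih =>
      obtain ⟨h0, h1, h2⟩ := ih
      set s := t - (n : L) with hs
      have hcast : t - ((n + 1 : ℕ) : L) = s - 1 := by push_cast; ring
      have hs1 : s - 1 ≠ 0 := by
        intro e
        refine hne _ h2 ?_
        rw [show s = 1 from sub_eq_zero.1 e, inv_one]; ring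
      have heq : (2 - (1 + s⁻¹))⁻¹ = 1 + (s - 1)⁻¹ := by
        refine inv_eq_of_mul_eq_one_right ?_
        field_simp
        ring
      obtain ⟨h3, h4⟩ := hstep _ h1 h2
      rw [heq] at h3 h4
      rw [hcast]
      exact ⟨hs1, h3, h4⟩
  have hrec : ∀ n : ℕ, N (t - (n : L)) = N t := by
    intro n
    induction n with
    | zero => simp
    | succ n ih =>
      obtain ⟨h0, h1, -⟩ := hind (n + 1)
      set s := t - ((n + 1 : ℕ) : L) with hs
      have : t - (n : L) = s * (1 + s⁻¹) := by
        rw [mul_add, mul_inv_cancel₀ h0, hs]; push_cast; ring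
      rw [← ih, this, map_mul, h1, mul_one]
  set c := algebraMap (ZMod p) L (N t) with hc
  set P : L[X] := (∏ i ∈ Finset.range q, (C (t ^ p ^ i) - X)) - C c with hP
  have hdeg : P.natDegree ≤ q := by
    refine (natDegree_sub_le _ _).trans (max_le ?_ (by simp))
    refine (natDegree_prod_le _ _).trans ?_
    refine (Finset.sum_le_card_nsmul _ _ 1 fun i _ => ?_).trans (by simp)
    exact (natDegree_sub_le _ _).trans (by simp)
  have hq0 : 0 < q := hodd.pos
  have hP0 : P ≠ 0 := by
    intro e
    have h : (∏ i ∈ Finset.range q, (C (t ^ p ^ i) - X)) = C c := sub_eq_zero.1 e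
    have h' := congrArg natDegree h
    rw [natDegree_C, natDegree_prod] at h'
    · have : ∀ i ∈ Finset.range q, (C (t ^ p ^ i) - X : L[X]).natDegree = 1 := fun i _ => by
        rw [natDegree_sub, natDegree_X_sub_C]
      rw [Finset.sum_congr rfl this] at h'
      simp at h'
      omega
    · intro i _ e'
      have := congrArg natDegree e'
      rw [natDegree_sub, natDegree_X_sub_C, natDegree_zero] at this
      omega
  haveI : CharP L p := charP_of_injective_algebraMap (algebraMap (ZMod p) L).injective p
  have hroot : ∀ k : ZMod p, P.IsRoot (algebraMap (ZMod p) L k) := by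
    intro k
    have hk : algebraMap (ZMod p) L k = (k.val : L) := by
      rw [← map_natCast (algebraMap (ZMod p) L), ZMod.natCast_zmod_val]
    rw [IsRoot.def, hP, eval_sub, eval_prod, eval_C, hc, ← hrec k.val, sub_eq_zero]
    rw [FiniteField.algebraMap_norm_eq_prod_pow, ← hq, Nat.card_zmod]
    refine Finset.prod_congr rfl fun i _ => ?_
    rw [eval_sub, eval_C, eval_X, sub_pow_char_pow, ← hk, ← map_pow, ZMod.pow_card_pow]
  have hsub : (Finset.univ.map ⟨algebraMap (ZMod p) L, (algebraMap (ZMod p) L).injective⟩) ⊆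
      P.roots.toFinset := by
    intro x hx
    obtain ⟨k, -, rfl⟩ := Finset.mem_map.1 hx
    exact Multiset.mem_toFinset.2 ((mem_roots hP0).2 (hroot k))
  have := Finset.card_le_card hsub
  rw [Finset.card_map, Finset.card_univ, ZMod.card] at this
  exact this.trans ((Multiset.toFinset_card_le _).trans ((card_roots' P).trans hdeg))

end Cfsg.Agent.NormField
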