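import Cfsg.Agent.NormField.Basic
import Mathlib.NumberTheory.LegendreSymbol.Complex
import Mathlib.RingTheory.Norm.Basic
import Mathlib.Algebra.Polynomial.SpecificDegree
import Mathlib.RingTheory.AdjoinRoot

/-! Existence of a second element `a` with `N a = N (2 - a) = 1`. -/

set_option autoImplicit false

namespace Cfsg.Agent.NormField

open Polynomial

/-- Degree 3. -/
theorem exists_exceptional_three {p : ℕ} [Fact p.Prime] (hp : p ≠ 2) {L : Type*} [Field L]
    [Finite L] [Algebra (ZMod p) L] (hL : Module.finrank (ZMod p) L = 3) :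
    ∃ a : L, a ≠ 1 ∧ Algebra.norm (ZMod p) a = 1 ∧ Algebra.norm (ZMod p) (2 - a) = 1 := by
  classical
  have hp2 : (2 : ZMod p) ≠ 0 := by
    intro e
    have : ((2 : ℕ) : ZMod p) = 0 := by exact_mod_cast e
    rw [ZMod.natCast_eq_zero_iff] at this
    exact hp ((Nat.prime_dvd_prime_iff_eq Fact.out Nat.prime_two).1 this)
  obtain ⟨c, hc⟩ : ∃ c, c ∉ ((Finset.univ : Finset (ZMod p)).erase 0).image
      (fun x => x + (x - 1) / (x * (x - 2))) := by
    by_contra h
    push Not at h
    have h1 := Finset.card_le_card (fun x _ => h x : (Finset.univ : Finset (ZMod p)) ⊆ _)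
    have h2 := h1.trans Finset.card_image_le
    rw [Finset.card_erase_of_mem (Finset.mem_univ _), Finset.card_univ, ZMod.card] at h2
    have := (Fact.out : p.Prime).pos
    omega
  set f : (ZMod p)[X] := X * (X - C 2) * (X - C c) + (X - 1) with hf
  have hm : (X * (X - C 2) * (X - C c) : (ZMod p)[X]).Monic :=
    (monic_X.mul (monic_X_sub_C 2)).mul (monic_X_sub_C c)
  have hd : (X * (X - C 2) * (X - C c) : (ZMod p)[X]).natDegree = 3 := by
    rw [natDegree_mul (mul_ne_zero X_ne_zero (X_sub_C_ne_zero 2)) (X_sub_C_ne_zero c),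
      natDegree_mul X_ne_zero (X_sub_C_ne_zero 2), natDegree_X, natDegree_X_sub_C, natDegree_X_sub_C]
  have hlt : (X - 1 : (ZMod p)[X]).natDegree < (X * (X - C 2) * (X - C c) : (ZMod p)[X]).natDegree := by
    rw [hd, ← C_1, natDegree_X_sub_C]; norm_num
  have hfm : f.Monic := hm.add_of_left (degree_lt_degree hlt)
  have hfd : f.natDegree = 3 := by rw [hf, natDegree_add_eq_left_of_natDegree_lt hlt, hd]
  have hev : ∀ x, f.eval x = x * (x - 2) * (x - c) + (x - 1) := fun x => by simp [hf]
  have hirr : Irreducible f := by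
    refine irreducible_of_degree_le_three_of_not_isRoot (by rw [hfd]; simp) fun x hx => ?_
    rw [IsRoot.def, hev] at hx
    by_cases h0 : x = 0
    · subst h0; simp at hx
    by_cases h2 : x = 2
    · subst h2; norm_num at hx
    refine hc (Finset.mem_image.2 ⟨x, by simpa using h0, ?_⟩)
    have : x * (x - 2) ≠ 0 := mul_ne_zero h0 (sub_ne_zero.2 h2)
    field_simp
    linear_combination hx
  haveI : Fact (Irreducible f) := ⟨hirr⟩
  let K := AdjoinRoot f
  let pb := AdjoinRoot.powerBasis hfm.ne_zero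
  haveI : Module.Finite (ZMod p) K := pb.finite
  haveI : Finite K := Module.finite_of_finite (ZMod p)
  letI := Fintype.ofFinite K
  letI := Fintype.ofFinite L
  have hKL : Fintype.card K = Fintype.card L := by
    rw [← FiniteField.pow_finrank_eq_card p K, ← FiniteField.pow_finrank_eq_card p L, hL,
      pb.finrank]
    change p ^ f.natDegree = _
    rw [hfd]
  let e : K ≃ₐ[ZMod p] L := FiniteField.algEquivOfCardEq p hKL
  set r : K := AdjoinRoot.root f with hr
  have hnorm : ∀ k : ZMod p, Algebra.norm (ZMod p) (algebraMap (ZMod p) K k - r) = f.eval k := by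
    intro k
    rw [Algebra.norm_eq_matrix_det pb.basis, map_sub, AlgHom.commutes,
      show r = pb.gen from rfl, show algebraMap (ZMod p) (Matrix (Fin pb.dim) (Fin pb.dim) (ZMod p)) k = Matrix.scalar _ k from rfl, ← Matrix.eval_charpoly, charpoly_leftMulMatrix]
    congr 1
    exact AdjoinRoot.minpoly_powerBasis_gen_of_monic hfm
  have hr1 : r ≠ 1 := by
    intro h
    have := hnorm 1
    rw [map_one, h, sub_self, Algebra.norm_zero, hev] at this
    have hmem := AdjoinRoot.eval₂_root f
    rw [← hr, h, eval₂_at_one] at hmem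
    have h3 : f.eval 1 = 0 := (AdjoinRoot.of f).injective (by rw [hmem, map_zero])
    exact hirr.not_isRoot_of_natDegree_ne_one (by rw [hfd]; norm_num) h3
  refine ⟨e r, fun h => hr1 (e.injective (by rw [h, map_one])), ?_, ?_⟩
  · have h0 := hnorm 0
    rw [map_zero, zero_sub, hev] at h0
    have h1 : Algebra.norm (ZMod p) r = 1 := by
      have hneg : Algebra.norm (ZMod p) (-1 : K) = -1 := by
        rw [show (-1 : K) = algebraMap (ZMod p) K (-1) by rw [map_neg, map_one],
          Algebra.norm_algebraMap, pb.finrank]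
        change (-1 : ZMod p) ^ f.natDegree = _
        rw [hfd]; ring
      rw [← neg_one_mul, map_mul, hneg] at h0
      linear_combination -h0
    rw [Algebra.norm_eq_of_algEquiv e]; exact h1
  · have h2 := hnorm 2
    rw [map_ofNat, hev] at h2
    rw [show (2 : L) - e r = e (2 - r) by rw [map_sub, map_ofNat], Algebra.norm_eq_of_algEquiv e, h2]
    ring

/-- Degree at least 5, by counting with additive characters. -/
theorem exists_exceptional_five {p : ℕ} [Fact p.Prime] (hp : p ≠ 2) {L : Type*} [Field L]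
    [Finite L] [Algebra (ZMod p) L] (hL : 5 ≤ Module.finrank (ZMod p) L) :
    ∃ a : L, a ≠ 1 ∧ Algebra.norm (ZMod p) a = 1 ∧ Algebra.norm (ZMod p) (2 - a) = 1 := by
  classical
  by_contra hcon
  push Not at hcon
  letI := Fintype.ofFinite L
  set q := Module.finrank (ZMod p) L with hq
  let N : L →* ZMod p := Algebra.norm (ZMod p)
  have hP : Fintype.card L = p ^ q := (FiniteField.pow_finrank_eq_card p L).symm
  set U : Finset L := Finset.univ.filter (fun x => N x = 1) with hU
  have hU0 : ∀ x ∈ U, x ≠ 0 := fun x hx e => by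
    simp only [hU, Finset.mem_filter, e] at hx
    exact zero_ne_one ((Algebra.norm_zero (R := ZMod p) (S := L)).symm.trans hx.2)
  set u := U.card with hu
  -- the order of U
  have hcard : (p - 1) * u = p ^ q - 1 := by
    let φ : Lˣ →* (ZMod p)ˣ := Units.map N
    have h := φ.ker.card_mul_index
    rw [Subgroup.index_ker, MonoidHom.range_eq_top.2 (FiniteField.unitsMap_norm_surjective (ZMod p) L),
      Subgroup.card_top, Nat.card_units, Nat.card_units, Nat.card_zmod,
      Nat.card_eq_fintype_card (α := L), hP] at h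
    have hk : Nat.card ↥φ.ker = u := by
      rw [hu, ← Nat.card_eq_finsetCard U]
      exact Nat.card_congr
        { toFun := fun x => ⟨((x : Lˣ) : L), by
            have := congrArg Units.val (MonoidHom.mem_ker.1 x.2)
            simpa [hU, φ] using this⟩
          invFun := fun x => ⟨Units.mk0 x (hU0 x x.2), by
            refine MonoidHom.mem_ker.2 (Units.ext ?_)
            exact (Finset.mem_filter.1 x.2).2⟩
          left_inv := fun x => Subtype.ext (Units.ext rfl)
          right_inv := fun x => rfl }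
    rw [hk, mul_comm] at h
    exact h
  -- the character sums
  let ψ : AddChar L ℂ := AddChar.FiniteField.primitiveChar_to_Complex L
  have hψ : ψ.IsPrimitive := AddChar.FiniteField.primitiveChar_to_Complex_isPrimitive L
  have horth : ∀ z : L, ∑ b : L, ψ (b * z) = if z = 0 then ((p ^ q : ℕ) : ℂ) else 0 := by
    intro z
    rw [AddChar.sum_mulShift z hψ, ← hP]
    split_ifs <;> simp
  let S : L → ℂ := fun b => ∑ x ∈ U, ψ (b * x)
  have hS0 : S 0 = (u : ℂ) := by simp [S, hu]
  have hSinv : ∀ b : L, ∀ v ∈ U, S (b * v) = S b := by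
    intro b v hv
    refine Finset.sum_bij' (fun x _ => v * x) (fun x _ => v⁻¹ * x) ?_ ?_ ?_ ?_ ?_
    · intro x hx
      simp only [hU, Finset.mem_filter, Finset.mem_univ, true_and] at hx hv ⊢
      rw [map_mul, hx, hv, mul_one]
    · intro x hx
      have hv0 := hU0 v hv
      simp only [hU, Finset.mem_filter, Finset.mem_univ, true_and] at hx hv ⊢
      have := map_mul N v (v⁻¹ * x)
      rw [mul_inv_cancel_left₀ hv0, hx, hv, one_mul] at this
      exact this.symm
    · intro x _; exact inv_mul_cancel_left₀ (hU0 v hv) x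
    · intro x _; exact mul_inv_cancel_left₀ (hU0 v hv) x
    · intro x _; rw [mul_assoc]
  have hone : U.filter (fun x => 2 - x ∈ U) ⊆ {1} := by
    intro x hx
    simp only [hU, Finset.mem_filter, Finset.mem_univ, true_and] at hx
    by_contra h
    exact hcon x (by simpa using h) hx.1 hx.2
  set n := (U.filter (fun x => 2 - x ∈ U)).card with hn
  have hn1 : n ≤ 1 := (Finset.card_le_card hone).trans (by simp)
  have hA : ∑ b : L, S b * S b * ψ (b * (-2)) = ((p ^ q : ℕ) : ℂ) * n := by
    calc ∑ b : L, S b * S b * ψ (b * (-2))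
        = ∑ b : L, ∑ x ∈ U, ∑ y ∈ U, ψ (b * (x + y + -2)) := by
          refine Finset.sum_congr rfl fun b _ => ?_
          simp only [S, Finset.sum_mul, Finset.mul_sum, mul_add, AddChar.map_add_eq_mul]
          exact Finset.sum_congr rfl fun x _ => Finset.sum_congr rfl fun y _ => by ring
      _ = ∑ x ∈ U, ∑ y ∈ U, ∑ b : L, ψ (b * (x + y + -2)) := by
          rw [Finset.sum_comm]
          exact Finset.sum_congr rfl fun x _ => Finset.sum_comm
      _ = ∑ x ∈ U, ∑ y ∈ U, if y = 2 - x then ((p ^ q : ℕ) : ℂ) else 0 := by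
          refine Finset.sum_congr rfl fun x _ => Finset.sum_congr rfl fun y _ => ?_
          rw [horth]
          refine if_congr ?_ rfl rfl
          constructor <;> intro h <;> linear_combination h
      _ = ∑ x ∈ U, if 2 - x ∈ U then ((p ^ q : ℕ) : ℂ) else 0 := by
          simp
      _ = ((p ^ q : ℕ) : ℂ) * n := by
          rw [← Finset.sum_filter, Finset.sum_const, nsmul_eq_mul, hn, mul_comm]
  have hB : ∑ b : L, ‖S b‖ ^ 2 = ((p ^ q : ℕ) : ℝ) * u := by
    have h : ∑ b : L, ((‖S b‖ : ℂ)) ^ 2 = ((p ^ q : ℕ) : ℂ) * u := by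
      calc ∑ b : L, ((‖S b‖ : ℂ)) ^ 2 = ∑ b : L, ∑ x ∈ U, ∑ y ∈ U, ψ (b * (x - y)) := by
            refine Finset.sum_congr rfl fun b _ => ?_
            rw [← Complex.mul_conj', map_sum]
            simp only [S, Finset.sum_mul, Finset.mul_sum, mul_sub, ← AddChar.map_neg_eq_conj]
            refine Finset.sum_comm.trans ?_
            refine Finset.sum_congr rfl fun x _ => Finset.sum_congr rfl fun y _ => ?_
            rw [sub_eq_add_neg, AddChar.map_add_eq_mul]
        _ = ∑ x ∈ U, ∑ y ∈ U, ∑ b : L, ψ (b * (x - y)) := by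
            rw [Finset.sum_comm]
            exact Finset.sum_congr rfl fun x _ => Finset.sum_comm
        _ = ∑ x ∈ U, ∑ y ∈ U, if x = y then ((p ^ q : ℕ) : ℂ) else 0 := by
            refine Finset.sum_congr rfl fun x _ => Finset.sum_congr rfl fun y _ => ?_
            rw [horth]
            exact if_congr sub_eq_zero rfl rfl
        _ = ((p ^ q : ℕ) : ℂ) * u := by simp [hu, mul_comm]
    exact_mod_cast h
  have hC : ∑ b ∈ Finset.univ.erase 0, ‖S b‖ ^ 2 = ((p ^ q : ℕ) : ℝ) * u - (u : ℝ) ^ 2 := by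
    rw [← hB, ← Finset.add_sum_erase _ _ (Finset.mem_univ (0 : L)), hS0, Complex.norm_natCast]
    ring
  have hu0 : 0 < u := Finset.card_pos.2 ⟨1, by simp [hU]⟩
  set M := Real.sqrt (((p ^ q : ℕ) : ℝ) - u) with hM
  have hule : (u : ℝ) ≤ ((p ^ q : ℕ) : ℝ) := by
    have := Finset.card_le_univ U
    rw [hP] at this
    exact_mod_cast this
  have hSb : ∀ b : L, b ≠ 0 → ‖S b‖ ≤ M := by
    intro b hb
    refine Real.le_sqrt_of_sq_le ?_
    have h1 : ∑ c ∈ U.image (fun v => b * v), ‖S c‖ ^ 2 ≤ ∑ c ∈ Finset.univ.erase 0, ‖S c‖ ^ 2 := by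
      refine Finset.sum_le_sum_of_subset_of_nonneg ?_ fun c _ _ => by positivity
      intro c hc
      obtain ⟨v, hv, rfl⟩ := Finset.mem_image.1 hc
      exact Finset.mem_erase.2 ⟨mul_ne_zero hb (hU0 v hv), Finset.mem_univ _⟩
    rw [Finset.sum_image (fun x _ y _ h => mul_left_cancel₀ hb h),
      Finset.sum_congr rfl (fun v hv => by rw [hSinv b v hv]), Finset.sum_const, nsmul_eq_mul, hC,
      ← hu] at h1
    have : (u : ℝ) * ‖S b‖ ^ 2 ≤ u * ((p ^ q : ℕ) - u : ℝ) := by linarith [h1, sq (u : ℝ)]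
    exact le_of_mul_le_mul_left this (by exact_mod_cast hu0)
  set X' := ∑ b ∈ Finset.univ.erase 0, S b * S b * ψ (b * (-2)) with hX
  have hp2 : (-2 : L) ≠ 0 := by
    haveI : CharP L p := charP_of_injective_algebraMap (algebraMap (ZMod p) L).injective p
    intro e
    have : ((2 : ℕ) : L) = 0 := by simpa using e
    rw [CharP.cast_eq_zero_iff L p] at this
    exact hp ((Nat.prime_dvd_prime_iff_eq Fact.out Nat.prime_two).1 this)
  have hXv : ∀ v ∈ U, X' = ∑ b ∈ Finset.univ.erase 0, S b * S b * ψ (b * (-2) * v) := by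
    intro v hv
    have hv0 := hU0 v hv
    refine Finset.sum_bij' (fun b _ => b * v⁻¹) (fun b _ => b * v) ?_ ?_ ?_ ?_ ?_
    · intro b hb; simpa [hv0] using hb
    · intro b hb; simpa [hv0] using hb
    · intro b _; simp [mul_assoc, hv0]
    · intro b _; simp [mul_assoc, hv0]
    · intro b _
      have h := hSinv (b * v⁻¹) v hv
      rw [inv_mul_cancel_right₀ hv0] at h
      rw [← h]
      congr 2
      field_simp
  have huX : (u : ℂ) * X' = ∑ b ∈ Finset.univ.erase 0, S b * S b * S (b * (-2)) := by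
    calc (u : ℂ) * X' = ∑ v ∈ U, X' := by rw [Finset.sum_const, nsmul_eq_mul, hu]
      _ = ∑ v ∈ U, ∑ b ∈ Finset.univ.erase 0, S b * S b * ψ (b * (-2) * v) :=
          Finset.sum_congr rfl hXv
      _ = _ := by
          rw [Finset.sum_comm]
          refine Finset.sum_congr rfl fun b _ => ?_
          rw [← Finset.mul_sum]
  have hXle : ‖X'‖ ≤ M * (((p ^ q : ℕ) : ℝ) - u) := by
    have h : (u : ℝ) * ‖X'‖ ≤ M * (((p ^ q : ℕ) : ℝ) * u - (u : ℝ) ^ 2) := by
      rw [← hC, Finset.mul_sum, ← Complex.norm_natCast u, ← norm_mul, huX]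
      refine (norm_sum_le _ _).trans (Finset.sum_le_sum fun b hb => ?_)
      rw [norm_mul, norm_mul, ← sq, mul_comm M]
      exact mul_le_mul_of_nonneg_left (hSb _ (mul_ne_zero (Finset.ne_of_mem_erase hb) hp2))
        (by positivity)
    refine le_of_mul_le_mul_left (h.trans_eq ?_) (by exact_mod_cast hu0 : (0 : ℝ) < u)
    ring
  have hdec : ((p ^ q : ℕ) : ℂ) * n = (u : ℂ) ^ 2 + X' := by
    rw [← hA, ← Finset.add_sum_erase _ _ (Finset.mem_univ (0 : L)), hS0, zero_mul,
      AddChar.map_zero_eq_one, mul_one, sq]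
  have hXeq : X' = (((((p ^ q : ℕ) : ℝ) * n - (u : ℝ) ^ 2 : ℝ)) : ℂ) := by
    rw [eq_sub_of_add_eq' hdec.symm]; push_cast; ring
  rw [hXeq, Complex.norm_real, Real.norm_eq_abs] at hXle
  -- numerics
  have h1 : (u : ℝ) ^ 2 - (p ^ q : ℕ) ≤ M * (((p ^ q : ℕ) : ℝ) - u) := by
    refine le_trans ?_ hXle
    refine le_trans ?_ (neg_le_abs _)
    have : (n : ℝ) ≤ 1 := by exact_mod_cast hn1
    nlinarith [this, hule]
  have hugeq : p ^ (q - 1) ≤ u := by
    have hqq : p ^ q = p * p ^ (q - 1) := by rw [← pow_succ']; congr 1; omega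
    have hpos : 1 ≤ p ^ (q - 1) := Nat.one_le_pow _ _ (Fact.out : p.Prime).pos
    refine Nat.le_of_mul_le_mul_left (c := p) ?_ (Fact.out : p.Prime).pos |>.trans le_rfl
    have hmul : p * u = (p - 1) * u + u := by
      conv_lhs => rw [show p = p - 1 + 1 from (Nat.succ_pred_eq_of_pos (Fact.out : p.Prime).pos).symm]
      ring
    have hge : 1 ≤ p - 1 := by have := (Fact.out : p.Prime).two_le; omega
    by_contra hlt
    push Not at hlt
    have : p * p ^ (q - 1) ≥ p * u + p := by
      have h' : u + 1 ≤ p ^ (q - 1) := by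
        have := Nat.lt_of_mul_lt_mul_left hlt
        omega
      calc p * u + p = p * (u + 1) := by ring
        _ ≤ _ := Nat.mul_le_mul_left p h'
    omega
  set x : ℝ := ((p ^ (q - 2) : ℕ) : ℝ) with hx
  have hp3 : (3 : ℝ) ≤ p := by
    have h2 := (Fact.out : p.Prime).two_le
    have : 3 ≤ p := by omega
    exact_mod_cast this
  have hxp : (p : ℝ) ^ 3 ≤ x := by
    rw [hx, Nat.cast_pow]
    exact pow_le_pow_right₀ (by linarith) (by omega)
  have hPx : ((p ^ q : ℕ) : ℝ) = (p : ℝ) ^ 2 * x := by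
    rw [hx, Nat.cast_pow, Nat.cast_pow, ← pow_add]; congr 1; omega
  have hu2 : (p : ℝ) ^ 2 * x ^ 2 ≤ (u : ℝ) ^ 2 := by
    have : ((p ^ (q - 1) : ℕ) : ℝ) ≤ u := by exact_mod_cast hugeq
    have he : ((p ^ (q - 1) : ℕ) : ℝ) = (p : ℝ) * x := by
      rw [hx, Nat.cast_pow, Nat.cast_pow, ← pow_succ']; congr 1; omega
    rw [← mul_pow]
    exact pow_le_pow_left₀ (by positivity) (he ▸ this) 2
  rw [hPx] at h1 hule
  have hM2 : M ^ 2 ≤ (p : ℝ) ^ 2 * x := by
    rw [hM, Real.sq_sqrt (by rw [hPx]; linarith), hPx]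
    have : (0 : ℝ) ≤ u := by positivity
    linarith
  have hMle : M * ((p : ℝ) ^ 2 * x - u) ≤ M * ((p : ℝ) ^ 2 * x) :=
    mul_le_mul_of_nonneg_left (by linarith [show (0 : ℝ) ≤ u by positivity]) (Real.sqrt_nonneg _)
  have hx27 : (27 : ℝ) ≤ x := le_trans (by nlinarith [mul_le_mul hp3 hp3 (by norm_num) (by linarith)]) hxp
  have hk : x - 1 ≤ M := by
    have hpos : (0 : ℝ) < (p : ℝ) ^ 2 * x := by positivity
    refine le_of_mul_le_mul_left ?_ hpos
    calc (p : ℝ) ^ 2 * x * (x - 1) = (p : ℝ) ^ 2 * x ^ 2 - (p : ℝ) ^ 2 * x := by ring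
      _ ≤ (u : ℝ) ^ 2 - (p : ℝ) ^ 2 * x := by linarith
      _ ≤ M * ((p : ℝ) ^ 2 * x - u) := h1
      _ ≤ _ := by rw [mul_comm ((p : ℝ) ^ 2 * x)]; exact hMle
  have hk2 : (x - 1) ^ 2 ≤ (p : ℝ) ^ 2 * x := (pow_le_pow_left₀ (by linarith) hk 2).trans hM2
  have h3 : 3 * ((p : ℝ) ^ 2 * x) ≤ x * x := by
    have : 3 * (p : ℝ) ^ 2 ≤ x := le_trans (by nlinarith [sq_nonneg (p : ℝ)]) hxp
    nlinarith
  nlinarith

end Cfsg.Agent.NormField
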